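import Cfsg.Agent.Mat.Frob
import Cfsg.Agent.Sp5.Top
import Cfsg.Agent.Spec.Alt

/-! Recognition of `A₄`, `A₅`, `A₆` from the set of sizes of same-order classes. -/

set_option autoImplicit false

namespace Cfsg.Agent.NseA

open Subgroup MulAction Cfsg.Agent.M11 Cfsg.Agent.Mat

variable {G : Type*} [Group G] [Finite G]

theorem mo_one : mo G 1 = 1 := by simp [mo]

theorem mo_zero : mo G 0 = 0 := by
  by_contra h
  obtain ⟨x, hx⟩ := exists_ord h
  exact (orderOf_pos x).ne' hx

theorem sec {p A m b : ℕ} (hp : p.Prime) (hG : Nat.card G = p ^ A * m) (hm : ¬ p ∣ m)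
    (h : (p ^ A).Coprime b) (hb : b ≠ 0) : p ^ A ∣ ∑ a ∈ (p ^ A).divisors, mo G (a * b) :=
  sum_iv (G := G) h (pow_ne_zero _ hp.ne_zero) hb ▸ pow_dvd_sum_iv hp hG hm conj_mem_ordS

theorem sec1 {p m b : ℕ} (hp : p.Prime) (hG : Nat.card G = p * m) (hm : ¬ p ∣ m)
    (h : p.Coprime b) (hb : b ≠ 0) : p ∣ mo G b + mo G (p * b) := by
  have := sec (A := 1) hp (by rwa [pow_one]) hm (by rwa [pow_one]) hb
  rwa [pow_one, hp.sum_divisors, one_mul, add_comm] at this

theorem frob {p : ℕ} (hp : p.Prime) (a : ℕ) (ha : p ^ a ∣ Nat.card G) :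
    p ^ a ∣ ∑ i ∈ Finset.range (a + 1), mo G (p ^ i) := by
  have := pow_dvd_sum_mo hp ha
  rwa [Nat.sum_divisors_prime_pow hp] at this

theorem exists_split {p : ℕ} (hp : p.Prime) {a : ℕ} (h1 : p ^ a ∣ Nat.card G)
    (h2 : ¬ p ^ (a + 1) ∣ Nat.card G) : ∃ m, Nat.card G = p ^ a * m ∧ ¬ p ∣ m := by
  obtain ⟨m, hm⟩ := h1
  exact ⟨m, hm, fun ⟨k, hk⟩ => h2 ⟨k, by rw [hm, hk]; ring⟩⟩

/-- With a cyclic Sylow subgroup every element of order `p` has many roots. -/
theorem cyc {p A m : ℕ} (hp : p.Prime) (hG : Nat.card G = p ^ (A + 1) * m) (hm : ¬ p ∣ m)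
    (h : mo G (p ^ (A + 1)) ≠ 0) : p ^ A * mo G p ≤ mo G (p ^ (A + 1)) := by
  classical
  have := Fact.mk hp
  obtain ⟨y₀, hy₀⟩ := exists_ord h
  rw [← card_ordS, ← card_ordS]
  refine Finset.mul_card_image_le_card_of_maps_to (f := (· ^ p ^ A)) (fun g hg => ?_) _ fun x hx => ?_
  · rw [mem_ordS] at hg ⊢
    rw [orderOf_pow_of_dvd (pow_ne_zero _ hp.ne_zero) (hg ▸ pow_dvd_pow p A.le_succ), hg,
      Nat.pow_div A.le_succ hp.pos]
    simp
  rw [mem_ordS] at hx
  obtain ⟨P, hP⟩ := exists_sylow_mem hx
  have h0 : IsPGroup p (zpowers y₀) := IsPGroup.of_card (by rw [Nat.card_zpowers, hy₀])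
  obtain ⟨Q, hQ⟩ := h0.exists_le_sylow
  obtain ⟨c, rfl⟩ := exists_smul_eq G Q P
  set y := c * y₀ * c⁻¹ with hy
  have hyo : orderOf y = p ^ (A + 1) := by rw [hy, orderOf_conj', hy₀]
  have hyP : y ∈ c • Q := Sp5.conj_mem_smul (hQ (mem_zpowers y₀)) c
  have e : zpowers y = (c • Q : Sylow p G) := eq_zpowers_of_card (card_sylow_eq _ _ _ hG hm) hyo hyP
  obtain ⟨j, rfl⟩ : x ∈ Submonoid.powers y := mem_powers_iff_mem_zpowers.2 (by rw [e]; exact hP)
  have hj : p ^ A ∣ j := by
    have h1 : (y ^ j) ^ p = 1 := by rw [← hx]; exact pow_orderOf_eq_one _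
    rw [← pow_mul, ← orderOf_dvd_iff_pow_eq_one, hyo, pow_succ] at h1
    exact Nat.dvd_of_mul_dvd_mul_right hp.pos h1
  obtain ⟨i, rfl⟩ := hj
  beta_reduce at hx ⊢
  have hne : y ^ (p ^ A * i) ≠ 1 := fun h1 => hp.ne_one (by rw [← hx, h1, orderOf_one])
  have key : ∀ k, (y ^ (i + p * k)) ^ p ^ A = y ^ (p ^ A * i) := fun k => by
    rw [← pow_mul, show (i + p * k) * p ^ A = p ^ A * i + p ^ (A + 1) * k by ring, pow_add,
      pow_mul y (p ^ (A + 1)), ← hyo, pow_orderOf_eq_one, one_pow, mul_one]
  refine (Finset.card_range (p ^ A)).ge.trans <| Finset.card_le_card_of_injOn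
    (fun k => y ^ (i + p * k)) (fun k _ => ?_) fun k hk l hl hkl => ?_
  · simp only [Finset.coe_filter, Set.mem_setOf_eq, mem_ordS]
    refine ⟨orderOf_eq_prime_pow (by rw [key]; exact hne) ?_, key k⟩
    rw [← pow_mul, mul_comm, pow_mul, ← hyo, pow_orderOf_eq_one, one_pow]
  · simp only [pow_add, mul_right_inj] at hkl
    rw [Finset.mem_coe, Finset.mem_range] at hk hl
    have hb : ∀ k, k < p ^ A → p * k ∈ Set.Iio (orderOf y) := fun k hk => by
      rw [hyo, pow_succ']; exact Nat.mul_lt_mul_of_pos_left hk hp.pos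
    exact Nat.eq_of_mul_eq_mul_left hp.pos (pow_injOn_Iio_orderOf (hb k hk) (hb l hl) hkl)

/-- The set of sizes of the same-order classes is `S`. -/
structure H (G : Type*) [Group G] (S : Finset ℕ) : Prop where
  mem : ∀ n, mo G n = 0 ∨ mo G n ∈ S
  att : ∀ s ∈ S, ∃ n, mo G n = s

theorem H.le {S : Finset ℕ} (h : H G S) : ∑ s ∈ S, s ≤ Nat.card G := by
  classical
  choose! f hf using h.att
  have hi : Set.InjOn f S := fun a ha b hb e => by rw [← hf a ha, ← hf b hb, e]
  rw [Finset.sum_congr rfl fun s hs => (hf s hs).symm, ← Finset.sum_image (f := mo G) hi,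
    ← ncard_eq_sum_mo, ← Set.ncard_univ]
  exact Set.ncard_le_ncard (Set.subset_univ _)

theorem H.two {S : Finset ℕ} (h : H G S) {s : ℕ} (hs : s ∈ S) (h1 : s ≠ 1) (ho : s % 2 = 1) :
    mo G 2 = s := by
  obtain ⟨n, hn⟩ := h.att s hs
  rcases lt_or_ge 2 n with h2 | h2
  · have := (Nat.totient_even h2).two_dvd.trans (totient_dvd_mo (G := G) n)
    omega
  · interval_cases n
    · rw [mo_zero] at hn; omega
    · rw [mo_one] at hn; omega
    · exact hn

theorem mem_of_sum {T : Finset ℕ} (h : ∑ n ∈ T, mo G n = Nat.card G) (g : G) : orderOf g ∈ T := by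
  rw [← ncard_eq_sum_mo, ← Set.ncard_univ] at h
  have := Set.eq_of_subset_of_ncard_le (Set.subset_univ _) h.ge
  exact (this ▸ Set.mem_univ g : g ∈ {g : G | orderOf g ∈ T})

theorem mo_ne {p : ℕ} (hp : p.Prime) (h : p ∣ Nat.card G) : mo G p ≠ 0 := by
  have := Fact.mk hp
  obtain ⟨x, hx⟩ := exists_prime_orderOf_dvd_card' p h
  exact hx ▸ mo_ne_zero x

theorem H.prime {S : Finset ℕ} (h : H G S) {p : ℕ} (hp : p.Prime) (hd : p ∣ Nat.card G) :
    mo G p ∈ S ∧ p ∣ mo G p + 1 ∧ p - 1 ∣ mo G p := by
  refine ⟨(h.mem p).resolve_left (mo_ne hp hd), ?_, Nat.totient_prime hp ▸ totient_dvd_mo p⟩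
  have := frob hp 1 (by rwa [pow_one])
  simpa [Finset.sum_range_succ, mo_one, add_comm] using this

theorem pw {p k a n : ℕ} (h : ¬ p ^ (a + 1) ∣ n) (hk : p ^ k ∣ n) : p ^ k ∣ p ^ a :=
  pow_dvd_pow p (not_lt.1 fun h' => h ((pow_dvd_pow p h').trans hk))

theorem dvd_of {n a b c : ℕ} (h : ∀ p : ℕ, p.Prime → p ∣ n → p = 2 ∨ p = 3 ∨ p = 5)
    (h2 : ¬ 2 ^ (a + 1) ∣ n) (h3 : ¬ 3 ^ (b + 1) ∣ n) (h5 : ¬ 5 ^ (c + 1) ∣ n) :
    n ∣ 2 ^ a * 3 ^ b * 5 ^ c := by
  rw [Nat.dvd_iff_prime_pow_dvd_dvd]
  intro p k hp hk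
  rcases k with _ | k
  · simp
  rcases h p hp ((dvd_pow_self p k.succ_ne_zero).trans hk) with rfl | rfl | rfl
  · exact (pw h2 hk).trans ((dvd_mul_right _ _).mul_right _)
  · exact (pw h3 hk).trans ((dvd_mul_left _ _).mul_right _)
  · exact (pw h5 hk).trans (dvd_mul_left _ _)

/-- A Sylow subgroup of prime order whose elements are the largest class is self-centralizing. -/
theorem H.cof {S : Finset ℕ} (h : H G S) {p m : ℕ} (hp : p.Prime) (hG : Nat.card G = p * m)
    (hm : ¬ p ∣ m) (hS : ∀ s ∈ S, s < 2 * mo G p) (h2 : mo G (2 * p) = 0) : m ∣ mo G p := by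
  have := Fact.mk hp
  refine dvd_mo fun x hx => dvd_class ⟨p, by rw [hG, mul_comm]⟩ (Nat.coprime_of_dvd fun r hr h1 h3 => ?_)
  have hrp : r.Coprime p := (Nat.coprime_primes hr hp).2 (by rintro rfl; exact hm h1)
  have e := mo_mul_prime hG hm hrp hr.pos hx
  obtain ⟨u, hu, hc⟩ := exists_of_prime_dvd_cc hr h3
  have h4 := totient_dvd_comm x r
  have h5 : {u | orderOf u = r ∧ Commute u x}.ncard ≠ 0 :=
    Set.ncard_ne_zero_of_mem (a := u) ⟨hu, hc⟩
  have h6 := mo_ne hp (hG ▸ dvd_mul_right _ _)
  have h7 : mo G (r * p) ≠ 0 := e ▸ mul_ne_zero h6 h5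
  have h8 := hS _ ((h.mem _).resolve_left h7)
  rw [e, mul_comm] at h8
  have h9 := Nat.lt_of_mul_lt_mul_right h8
  rw [show {u | orderOf u = r ∧ Commute u x}.ncard = 1 by omega, Nat.totient_prime hr, Nat.dvd_one] at h4
  obtain rfl : r = 2 := by omega
  exact h7 h2

theorem fin5 (h : ∀ g : G, orderOf g ∈ ({1, 2, 3, 4, 5} : Finset ℕ)) : Sp5.Le5 G := fun g => by
  have := h g
  simp only [Finset.mem_insert, Finset.mem_singleton] at this
  omega

theorem card_alt (n : ℕ) : 2 * Nat.card (alternatingGroup (Fin (n + 2))) = (n + 2).factorial := by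
  rw [two_mul_nat_card_alternatingGroup, Nat.card_perm]; simp

theorem card5 : Nat.card (alternatingGroup (Fin 5)) = 60 := by
  have : 2 * Nat.card (alternatingGroup (Fin 5)) = 120 := card_alt 3
  omega

theorem card6 : Nat.card (alternatingGroup (Fin 6)) = 360 := by
  have : 2 * Nat.card (alternatingGroup (Fin 6)) = 720 := card_alt 4
  omega

set_option synthInstance.maxSize 1000 in
theorem pr6 : ∀ p ∈ Finset.range 146, ∀ s ∈ ({1, 45, 80, 90, 144} : Finset ℕ), p.Prime → p ∣ s + 1 → p - 1 ∣ s →
    p = 2 ∨ p = 3 ∧ s = 80 ∨ p = 5 ∧ s = 144 ∨ p = 7 ∧ s = 90 := by decide +kernel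

set_option synthInstance.maxSize 1000 in
theorem pr5 : ∀ p ∈ Finset.range 26, ∀ s ∈ ({1, 15, 20, 24} : Finset ℕ), p.Prime → p ∣ s + 1 → p - 1 ∣ s →
    p = 2 ∨ p = 3 ∧ s = 20 ∨ p = 5 ∧ s = 24 := by decide +kernel

theorem pr4 : ∀ p ∈ Finset.range 10, ∀ s ∈ ({1, 3, 8} : Finset ℕ), p.Prime → p ∣ s + 1 → p - 1 ∣ s →
    p = 2 ∨ p = 3 ∧ s = 8 := by decide +kernel

theorem six (h : H G {1, 45, 80, 90, 144}) : Nonempty (G ≃* alternatingGroup (Fin 6)) := by
  have hv : ∀ n, (mo G n = 0 ∨ mo G n = 1 ∨ mo G n = 45 ∨ mo G n = 80 ∨ mo G n = 90 ∨ mo G n = 144) ∧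
      n.totient ∣ mo G n := fun n => ⟨by simpa using h.mem n, totient_dvd_mo n⟩
  have hle : 360 ≤ Nat.card G := by simpa using h.le
  have m1 := mo_one (G := G)
  have m2 := h.two (s := 45) (by simp) (by simp) (by simp)
  have hp : ∀ p : ℕ, p.Prime → p ∣ Nat.card G → p = 2 ∨ p = 3 ∧ mo G p = 80 ∨ p = 5 ∧ mo G p = 144 ∨
      p = 7 ∧ mo G p = 90 := fun p hp hd => by
    obtain ⟨a, b, c⟩ := h.prime hp hd
    refine pr6 p (Finset.mem_range.2 ?_) _ a hp b c
    have := Nat.le_of_dvd (by omega) b
    have := (hv p).1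
    omega
  have n7 : ¬ 7 ∣ Nat.card G := fun h7 => by
    have := Fact.mk Nat.prime_seven
    have m7 : mo G 7 = 90 := by simpa using hp 7 Nat.prime_seven h7
    have n49 : ¬ 7 ^ (1 + 1) ∣ Nat.card G := fun h => by
      have := frob Nat.prime_seven _ h
      have := (hv 49).1
      simp only [Finset.sum_range_succ, Finset.sum_range_zero] at *
      norm_num at *
      omega
    obtain ⟨m, hm, hm'⟩ := exists_split Nat.prime_seven (a := 1) h7 n49
    rw [pow_one] at hm
    obtain ⟨x, hx⟩ := exists_ord (G := G) (n := 7) (by omega)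
    have e := mo_mul_prime hm hm' (a := 2) (by norm_num) (by norm_num) hx
    rw [m7] at e
    have := sec1 Nat.prime_seven hm hm' (b := 2) (by norm_num) (by norm_num)
    have := (hv 14).1
    norm_num at *
    omega
  have hp' : ∀ p : ℕ, p.Prime → p ∣ Nat.card G → p = 2 ∨ p = 3 ∨ p = 5 := fun p h1 h2 => by
    rcases hp p h1 h2 with h | h | h | ⟨rfl, -⟩
    exacts [.inl h, .inr (.inl h.1), .inr (.inr h.1), absurd h2 n7]
  have m3 : 3 ∣ Nat.card G → mo G 3 = 80 := fun h => by simpa using hp 3 Nat.prime_three h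
  have m5 : 5 ∣ Nat.card G → mo G 5 = 144 := fun h => by simpa using hp 5 Nat.prime_five h
  have m4 : 4 ∣ Nat.card G → mo G 4 = 90 := fun h => by
    have := frob Nat.prime_two 2 h
    have := hv 4
    simp only [Finset.sum_range_succ, Finset.sum_range_zero, show Nat.totient 4 = 2 by decide] at *
    norm_num at *
    omega
  have n16 : ¬ 2 ^ (3 + 1) ∣ Nat.card G := fun h => by
    have := frob Nat.prime_two _ h
    have := m4 (Dvd.dvd.trans (by norm_num) h)
    have := hv 8
    have := hv 16
    simp only [Finset.sum_range_succ, Finset.sum_range_zero, show Nat.totient 8 = 4 by decide,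
      show Nat.totient 16 = 8 by decide] at *
    norm_num at *
    omega
  have y5 : 5 ∣ Nat.card G := by
    by_contra n5
    by_cases h9 : mo G 9 = 0
    · have h27 : mo G 27 = 0 := by_contra fun h => mo_ne_zero_of_dvd h (by norm_num) h9
      have h81 : mo G 81 = 0 := by_contra fun h => mo_ne_zero_of_dvd h (by norm_num) h9
      have h243 : mo G 243 = 0 := by_contra fun h => mo_ne_zero_of_dvd h (by norm_num) h9
      have n243 : ¬ 3 ^ (4 + 1) ∣ Nat.card G := fun h => by
        have := frob Nat.prime_three _ h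
        have := m3 (Dvd.dvd.trans (by norm_num) h)
        simp only [Finset.sum_range_succ, Finset.sum_range_zero] at *
        norm_num at *
        omega
      have hd := dvd_of (c := 0) hp' n16 n243 (by simpa using n5)
      have e : Nat.card G = 3 ^ 4 * 8 := by
        obtain ⟨k, hk⟩ := hd
        rcases k with _ | _ | k
        · omega
        · omega
        · nlinarith
      have := sec Nat.prime_three e (by norm_num) (b := 2) (by norm_num) (by norm_num)
      rw [Nat.sum_divisors_prime_pow Nat.prime_three] at this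
      have h18 : mo G 18 = 0 := by_contra fun h => mo_ne_zero_of_dvd h (by norm_num) h9
      have h54 : mo G 54 = 0 := by_contra fun h => mo_ne_zero_of_dvd h (by norm_num) h9
      have h162 : mo G 162 = 0 := by_contra fun h => mo_ne_zero_of_dvd h (by norm_num) h9
      have := (hv 6).1
      simp only [Finset.sum_range_succ, Finset.sum_range_zero] at *
      norm_num at *
      omega
    · have n27 : ¬ 3 ^ (2 + 1) ∣ Nat.card G := fun h => by
        have := frob Nat.prime_three _ h
        have := m3 (Dvd.dvd.trans (by norm_num) h)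
        have := hv 9
        have := hv 27
        simp only [Finset.sum_range_succ, Finset.sum_range_zero, show Nat.totient 9 = 6 by decide,
          show Nat.totient 27 = 18 by decide] at *
        norm_num at *
        omega
      have := Nat.le_of_dvd (by norm_num) (dvd_of (c := 0) hp' n16 n27 (by simpa using n5))
      omega
  have m5 := m5 y5
  have n125 : ¬ 5 ^ (2 + 1) ∣ Nat.card G := fun h => by
    have := frob Nat.prime_five _ h
    have := hv 25
    have := hv 125
    simp only [Finset.sum_range_succ, Finset.sum_range_zero, show Nat.totient 25 = 20 by decide,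
      show Nat.totient 125 = 100 by decide +kernel] at *
    norm_num at *
    omega
  have n25 : ¬ 5 ^ (1 + 1) ∣ Nat.card G := fun h => by
    obtain ⟨m, hm, hm'⟩ := exists_split Nat.prime_five h n125
    have h1 := frob Nat.prime_five _ h
    have h2 := hv 25
    simp only [Finset.sum_range_succ, Finset.sum_range_zero] at h1
    norm_num at h1
    have := cyc Nat.prime_five hm hm' (by norm_num; omega)
    norm_num at this
    omega
  obtain ⟨m, hm, hm'⟩ := exists_split Nat.prime_five (a := 1) y5 n25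
  rw [pow_one] at hm
  have h10 : mo G (2 * 5) = 0 := by
    have := Fact.mk Nat.prime_five
    obtain ⟨x, hx⟩ := exists_ord (G := G) (n := 5) (by omega)
    have e := mo_mul_prime hm hm' (a := 2) (by norm_num) (by norm_num) hx
    rw [m5] at e
    have := sec1 Nat.prime_five hm hm' (b := 2) (by norm_num) (by norm_num)
    have := (hv 10).1
    norm_num at *
    omega
  have hd := h.cof Nat.prime_five hm hm' (by rw [m5]; decide) h10
  have e : Nat.card G = 360 := by
    rw [m5] at hd
    obtain ⟨k, hk⟩ := hd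
    rcases k with _ | _ | _ | k
    · omega
    · exact absurd ⟨45, by omega⟩ n16
    · omega
    · nlinarith
  have hL := fin5 (mem_of_sum (G := G) (by
    have := m3 (by omega)
    have := m4 (by omega)
    simp; omega))
  refine (hL.structure (by omega) (by omega) (by omega)).resolve_right fun ⟨h1, ⟨f⟩⟩ => ?_
  have h2 := (Cfsg.pCore 2 G).card_mul_index
  have := Fact.mk Nat.prime_three
  rw [index_eq_card, Nat.card_congr f.toEquiv, card5, e] at h2
  obtain ⟨x, hx⟩ := exists_prime_orderOf_dvd_card' (G := Cfsg.pCore 2 G) 3 (by omega)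
  have := orderOf_dvd_of_pow_eq_one (x := x) (n := 2) (Subtype.ext (by simpa [pow_two] using h1 x x.2))
  rw [hx] at this
  omega

theorem five (h : H G {1, 15, 20, 24}) : Nonempty (G ≃* alternatingGroup (Fin 5)) := by
  have hv : ∀ n, (mo G n = 0 ∨ mo G n = 1 ∨ mo G n = 15 ∨ mo G n = 20 ∨ mo G n = 24) ∧
      n.totient ∣ mo G n := fun n => ⟨by simpa using h.mem n, totient_dvd_mo n⟩
  have hle : 60 ≤ Nat.card G := by simpa using h.le
  have m1 := mo_one (G := G)
  have m2 := h.two (s := 15) (by simp) (by simp) (by simp)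
  have hp : ∀ p : ℕ, p.Prime → p ∣ Nat.card G → p = 2 ∨ p = 3 ∧ mo G p = 20 ∨ p = 5 ∧ mo G p = 24 :=
    fun p hp hd => by
      obtain ⟨a, b, c⟩ := h.prime hp hd
      refine pr5 p (Finset.mem_range.2 ?_) _ a hp b c
      have := Nat.le_of_dvd (by omega) b
      have := (hv p).1
      omega
  have m3 : 3 ∣ Nat.card G → mo G 3 = 20 := fun h => by simpa using hp 3 Nat.prime_three h
  have m5 : 5 ∣ Nat.card G → mo G 5 = 24 := fun h => by simpa using hp 5 Nat.prime_five h
  have n27 : ¬ 3 ^ (2 + 1) ∣ Nat.card G := fun h => by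
    have := frob Nat.prime_three _ h
    have := m3 (Dvd.dvd.trans (by norm_num) h)
    have := hv 9
    have := hv 27
    simp only [Finset.sum_range_succ, Finset.sum_range_zero, show Nat.totient 9 = 6 by decide,
      show Nat.totient 27 = 18 by decide] at *
    norm_num at *
    omega
  have n9 : ¬ 3 ^ (1 + 1) ∣ Nat.card G := fun h => by
    obtain ⟨m, hm, hm'⟩ := exists_split Nat.prime_three h n27
    have h1 := frob Nat.prime_three _ h
    have h2 := hv 9
    have h3 := m3 (Dvd.dvd.trans (by norm_num) h)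
    simp only [Finset.sum_range_succ, Finset.sum_range_zero] at h1
    norm_num at h1
    have := cyc Nat.prime_three hm hm' (by norm_num; omega)
    norm_num at this
    omega
  have y5 : 5 ∣ Nat.card G := by
    by_contra n5
    by_cases h3 : 3 ∣ Nat.card G
    · have := Fact.mk Nat.prime_three
      obtain ⟨m, hm, hm'⟩ := exists_split Nat.prime_three (a := 1) h3 n9
      rw [pow_one] at hm
      have h1 := mo_prime hm hm'
      have h2 := (default : Sylow 3 G).card_dvd_index.trans (index_dvd_card _)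
      rw [show Nat.card (Sylow 3 G) = 10 by have := m3 h3; omega] at h2
      exact n5 (Dvd.dvd.trans (by norm_num) h2)
    · have h2 : ∀ {d}, d.Prime → d ∣ Nat.card G → d = 2 := fun {d} h1 h2 => by
        rcases hp d h1 h2 with h | ⟨rfl, -⟩ | ⟨rfl, -⟩
        exacts [h, absurd h2 h3, absurd h2 n5]
      have e := Nat.eq_prime_pow_of_unique_prime_dvd (by omega) h2
      generalize (Nat.card G).primeFactorsList.length = A at e
      have hA : 5 ≤ A := by
        by_contra hA
        have := Nat.pow_le_pow_right (n := 2) (by norm_num) (not_le.1 hA).le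
        omega
      have a5 := frob (G := G) Nat.prime_two 5 (e ▸ pow_dvd_pow 2 hA)
      have a3 := frob (G := G) Nat.prime_two 3 (e ▸ pow_dvd_pow 2 (by omega))
      have b4 := hv 4
      have b8 := hv 8
      have b16 := hv 16
      have b32 := hv 32
      have c8 : mo G 4 = 0 → mo G 8 = 0 := fun h => by_contra fun h' => mo_ne_zero_of_dvd h' (by norm_num) h
      have c16 : mo G 8 = 0 → mo G 16 = 0 := fun h => by_contra fun h' => mo_ne_zero_of_dvd h' (by norm_num) h
      simp only [Finset.sum_range_succ, Finset.sum_range_zero, show Nat.totient 8 = 4 by decide,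
        show Nat.totient 16 = 8 by decide, show Nat.totient 32 = 16 by decide,
        show Nat.totient 4 = 2 by decide] at a5 a3 b4 b8 b16 b32
      norm_num at a5 a3
      obtain ⟨n, hn⟩ := h.att 20 (by simp)
      obtain ⟨x, hx⟩ := exists_ord (G := G) (n := n) (by omega)
      obtain ⟨j, -, rfl⟩ := (Nat.dvd_prime_pow Nat.prime_two).1 (e ▸ hx ▸ orderOf_dvd_natCard x)
      rcases lt_or_ge j 4 with hj | hj
      · interval_cases j <;> norm_num at hn <;> omega
      · have := mo_ne_zero_of_dvd (G := G) (n := 2 ^ j) (d := 2 ^ 4) (by omega) (pow_dvd_pow 2 hj)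
        norm_num at this
        omega
  have m5 := m5 y5
  have h25 : mo G 25 = 0 := by
    have := hv 25
    rw [show Nat.totient 25 = 20 by decide] at this
    by_contra h0
    obtain ⟨x, hx⟩ := exists_ord h0
    have := frob (G := G) Nat.prime_five 2 (hx ▸ orderOf_dvd_natCard x :)
    simp only [Finset.sum_range_succ, Finset.sum_range_zero] at *
    norm_num at *
    omega
  have n125 : ¬ 5 ^ (2 + 1) ∣ Nat.card G := fun h => by
    have := frob Nat.prime_five _ h
    have h125 : mo G 125 = 0 := by_contra fun h => mo_ne_zero_of_dvd h (by norm_num) h25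
    simp only [Finset.sum_range_succ, Finset.sum_range_zero] at *
    norm_num at *
    omega
  have n25 : ¬ 5 ^ (1 + 1) ∣ Nat.card G := fun h => by
    obtain ⟨m, hm, hm'⟩ := exists_split Nat.prime_five h n125
    have := sec Nat.prime_five hm hm' (b := 2) (by norm_num) (by norm_num)
    rw [Nat.sum_divisors_prime_pow Nat.prime_five] at this
    have h50 : mo G 50 = 0 := by_contra fun h => mo_ne_zero_of_dvd h (by norm_num) h25
    have := hv 10
    simp only [Finset.sum_range_succ, Finset.sum_range_zero, show Nat.totient 10 = 4 by decide] at *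
    norm_num at *
    omega
  obtain ⟨m, hm, hm'⟩ := exists_split Nat.prime_five (a := 1) y5 n25
  rw [pow_one] at hm
  have h10 : mo G (2 * 5) = 0 := by
    have := Fact.mk Nat.prime_five
    obtain ⟨x, hx⟩ := exists_ord (G := G) (n := 5) (by omega)
    have e := mo_mul_prime hm hm' (a := 2) (by norm_num) (by norm_num) hx
    rw [m5] at e
    have := sec1 Nat.prime_five hm hm' (b := 2) (by norm_num) (by norm_num)
    have := (hv 10).1
    norm_num at *
    omega
  have hd := h.cof Nat.prime_five hm hm' (by rw [m5]; decide) h10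
  have e : Nat.card G = 60 := by
    rw [m5] at hd
    obtain ⟨k, hk⟩ := hd
    rcases k with _ | _ | _ | k
    · omega
    · have := Fact.mk Nat.prime_three
      have e : Nat.card G = 3 * 40 := by omega
      have h1 := m3 (by omega)
      have h2 := h.cof Nat.prime_three e (by norm_num) (by rw [h1]; decide) (by
        obtain ⟨x, hx⟩ := exists_ord (G := G) (n := 3) (by omega)
        have e' := mo_mul_prime e (by norm_num) (a := 2) (by norm_num) (by norm_num) hx
        rw [h1] at e'
        have := sec1 Nat.prime_three e (by norm_num) (b := 2) (by norm_num) (by norm_num)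
        have := (hv 6).1
        norm_num at *
        omega)
      omega
    · omega
    · nlinarith
  have hL := fin5 (G := G) fun g => by
    have := mem_of_sum (G := G) (T := {1, 2, 3, 5}) (by
      have := m3 (by omega)
      simp; omega) g
    simp only [Finset.mem_insert, Finset.mem_singleton] at this ⊢
    omega
  rcases hL.structure (by omega) (by omega) (by omega) with ⟨⟨f⟩⟩ | ⟨-, ⟨f⟩⟩
  · have := (Nat.card_congr f.toEquiv).trans card6
    omega
  have h2 := (Cfsg.pCore 2 G).card_mul_index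
  rw [index_eq_card, Nat.card_congr f.toEquiv, card5, e] at h2
  exact ⟨(QuotientGroup.quotientBot.symm.trans (QuotientGroup.quotientMulEquivOfEq
    (card_eq_one.1 (by omega)).symm)).trans f⟩

theorem four (h : H G {1, 3, 8}) : Nonempty (G ≃* alternatingGroup (Fin 4)) := by
  classical
  have hv : ∀ n, (mo G n = 0 ∨ mo G n = 1 ∨ mo G n = 3 ∨ mo G n = 8) ∧
      n.totient ∣ mo G n := fun n => ⟨by simpa using h.mem n, totient_dvd_mo n⟩
  have hle : 12 ≤ Nat.card G := by simpa using h.le
  have m1 := mo_one (G := G)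
  have m2 := h.two (s := 3) (by simp) (by simp) (by simp)
  have hp : ∀ p : ℕ, p.Prime → p ∣ Nat.card G → p = 2 ∨ p = 3 ∧ mo G p = 8 := fun p hp hd => by
    obtain ⟨a, b, c⟩ := h.prime hp hd
    refine pr4 p (Finset.mem_range.2 ?_) _ a hp b c
    have := Nat.le_of_dvd (by omega) b
    have := (hv p).1
    omega
  have m3 : 3 ∣ Nat.card G → mo G 3 = 8 := fun h => by simpa using hp 3 Nat.prime_three h
  have n8 : ¬ 2 ^ (2 + 1) ∣ Nat.card G := fun h => by
    have := frob Nat.prime_two _ h
    have := hv 4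
    have := hv 8
    simp only [Finset.sum_range_succ, Finset.sum_range_zero, show Nat.totient 8 = 4 by decide,
      show Nat.totient 4 = 2 by decide] at *
    norm_num at *
    omega
  have h9 : mo G 9 = 0 := by
    have := hv 9
    rw [show Nat.totient 9 = 6 by decide] at this
    omega
  have n27 : ¬ 3 ^ (2 + 1) ∣ Nat.card G := fun h => by
    have := frob Nat.prime_three _ h
    have := m3 (Dvd.dvd.trans (by norm_num) h)
    have h27 : mo G 27 = 0 := by_contra fun h => mo_ne_zero_of_dvd h (by norm_num) h9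
    simp only [Finset.sum_range_succ, Finset.sum_range_zero] at *
    norm_num at *
    omega
  have n9 : ¬ 3 ^ (1 + 1) ∣ Nat.card G := fun h => by
    obtain ⟨m, hm, hm'⟩ := exists_split Nat.prime_three h n27
    have := sec Nat.prime_three hm hm' (b := 2) (by norm_num) (by norm_num)
    rw [Nat.sum_divisors_prime_pow Nat.prime_three] at this
    have h18 : mo G 18 = 0 := by_contra fun h => mo_ne_zero_of_dvd h (by norm_num) h9
    have := (hv 6).1
    simp only [Finset.sum_range_succ, Finset.sum_range_zero] at *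
    norm_num at *
    omega
  have e : Nat.card G = 3 * 4 := le_antisymm (Nat.le_of_dvd (by norm_num) (dvd_of (c := 0)
    (fun p h1 h2 => (hp p h1 h2).imp_right fun h => .inl h.1) n8 n9 fun h5 => by
      have := hp 5 Nat.prime_five (by simpa using h5)
      omega)) hle
  have := Fact.mk Nat.prime_three
  have h1 := mo_prime e (by norm_num)
  have h4 : Nat.card (Sylow 3 G) = 4 := by have := m3 (by omega); omega
  have := Fintype.ofFinite (Sylow 3 G)
  let ε := Finite.equivFinOfCardEq h4
  let φ : G →* Equiv.Perm (Fin 4) := ε.permCongrHom.toMonoidHom.comp (toPermHom G (Sylow 3 G))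
  have hφ : Function.Injective φ := by
    rw [injective_iff_map_eq_one]
    intro g hg
    have hg' : ∀ P : Sylow 3 G, g ∈ P := fun P => by
      have h5 : g • P = P := congrArg (· P) (ε.permCongrHom.map_eq_one_iff.1 hg)
      have h6 := card_normalizer_mul P
      have h7 := card_syl_prime e (by norm_num) P
      have h8 : (P : Subgroup G) = normalizer ((P : Subgroup G) : Set G) :=
        eq_of_le_of_card_ge le_normalizer (by rw [h4] at h6; omega)
      change g ∈ (P : Subgroup G)
      rw [h8]
      exact Sylow.smul_eq_iff_mem_normalizer.1 h5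
    by_contra h0
    have : Subsingleton (Sylow 3 G) := ⟨fun P Q => by
      have h9 : ∀ P : Sylow 3 G, zpowers g = P := fun P =>
        have := card_syl_prime e (by norm_num) P
        eq_zpowers_of_card this (((Nat.dvd_prime Nat.prime_three).1
          (this ▸ (P : Subgroup G).orderOf_dvd_natCard (hg' P))).resolve_left
            fun h => h0 (orderOf_eq_one_iff.1 h)) (hg' P)
      exact Sylow.ext ((h9 P).symm.trans (h9 Q))⟩
    have := Finite.card_le_one_iff_subsingleton.2 this
    omega
  have h5 := φ.range.card_mul_index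
  rw [← Nat.card_congr (φ.ofInjective hφ).toEquiv, e, Nat.card_perm] at h5
  norm_num [Nat.factorial] at h5
  exact ⟨(φ.ofInjective hφ).trans (MulEquiv.subgroupCongr
    (Equiv.Perm.eq_alternatingGroup_of_index_eq_two (by omega)))⟩

theorem H.of_eq {S : Finset ℕ} (h : (fun m : ℕ => Nat.card {g : G // orderOf g = m}) ''
    Set.range (orderOf : G → ℕ) = S) : H G S where
  mem n := or_iff_not_imp_left.2 fun h0 => Finset.mem_coe.1 (h ▸ ⟨n, exists_ord h0, rfl⟩)
  att s hs := by
    obtain ⟨n, -, hn⟩ := h.ge (Finset.mem_coe.2 hs)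
    exact ⟨n, hn⟩

theorem sum_pow [Fintype G] [DecidableEq G] {n : ℕ} (hn : n ≠ 0) :
    ∑ d ∈ n.divisors, mo G d = (Finset.univ.filter fun g : G => g ^ n = 1).card := by
  rw [← ncard_eq_sum_mo, ← Set.ncard_coe_finset]
  congr 1
  ext g
  simp [hn, orderOf_dvd_iff_pow_eq_one]

theorem mo_prime_eq [Fintype G] [DecidableEq G] {p : ℕ} (hp : p.Prime) :
    mo G p + 1 = (Finset.univ.filter fun g : G => g ^ p = 1).card := by
  rw [← sum_pow hp.ne_zero, hp.sum_divisors, mo_one]

theorem nse6 : (fun m : ℕ => Nat.card {g : alternatingGroup (Fin 6) // orderOf g = m}) ''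
    Set.range (orderOf : alternatingGroup (Fin 6) → ℕ) = ({1, 45, 80, 90, 144} : Finset ℕ) := by
  have h1 := mo_one (G := alternatingGroup (Fin 6))
  have h2 := (mo_prime_eq (G := alternatingGroup (Fin 6)) Nat.prime_two).trans (b := _) (c := 46)
    (by decide +kernel)
  have h3 := (mo_prime_eq (G := alternatingGroup (Fin 6)) Nat.prime_three).trans (c := 81)
    (by decide +kernel)
  have h5 := (mo_prime_eq (G := alternatingGroup (Fin 6)) Nat.prime_five).trans (c := 145)
    (by decide +kernel)
  have h6 := card_eq_sum_mo (G := alternatingGroup (Fin 6)) (S := {1, 2, 3, 4, 5}) fun g => by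
    simpa using Spec.spec_alt6.le ⟨g, rfl⟩
  rw [card6] at h6
  norm_num at h6
  rw [Spec.spec_alt6]
  change mo _ '' _ = _
  simp only [Set.image_insert_eq, Set.image_singleton, Finset.coe_insert, Finset.coe_singleton]
  congr <;> omega

theorem nse5 : (fun m : ℕ => Nat.card {g : alternatingGroup (Fin 5) // orderOf g = m}) ''
    Set.range (orderOf : alternatingGroup (Fin 5) → ℕ) = ({1, 15, 20, 24} : Finset ℕ) := by
  have h1 := mo_one (G := alternatingGroup (Fin 5))
  have h2 := (mo_prime_eq (G := alternatingGroup (Fin 5)) Nat.prime_two).trans (c := 16)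
    (by decide +kernel)
  have h3 := (mo_prime_eq (G := alternatingGroup (Fin 5)) Nat.prime_three).trans (c := 21)
    (by decide +kernel)
  have h5 := (mo_prime_eq (G := alternatingGroup (Fin 5)) Nat.prime_five).trans (c := 25)
    (by decide +kernel)
  rw [Spec.spec_alt5]
  change mo _ '' _ = _
  simp only [Set.image_insert_eq, Set.image_singleton, Finset.coe_insert, Finset.coe_singleton]
  congr <;> omega

theorem nse4 : (fun m : ℕ => Nat.card {g : alternatingGroup (Fin 4) // orderOf g = m}) ''
    Set.range (orderOf : alternatingGroup (Fin 4) → ℕ) = ({1, 3, 8} : Finset ℕ) := by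
  have h1 := mo_one (G := alternatingGroup (Fin 4))
  have h2 := (mo_prime_eq (G := alternatingGroup (Fin 4)) Nat.prime_two).trans (c := 4)
    (by decide +kernel)
  have h3 := (mo_prime_eq (G := alternatingGroup (Fin 4)) Nat.prime_three).trans (c := 9)
    (by decide +kernel)
  have h4 : Set.range (orderOf : alternatingGroup (Fin 4) → ℕ) = {1, 2, 3} := by
    rw [Spec.spec_alt_of_chk 4 [[], [2, 2], [3]] (by decide +kernel) (by decide +kernel)]
    ext k
    norm_num [Spec.lcmL]
  rw [h4]
  change mo _ '' _ = _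
  simp only [Set.image_insert_eq, Set.image_singleton, Finset.coe_insert, Finset.coe_singleton]
  congr <;> omega

end Cfsg.Agent.NseA
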